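import Cfsg.Agent.H94.S460.M.M2.RChk0

set_option autoImplicit false
set_option linter.all false

namespace Cfsg.Agent.H94.S460.M

open Cfsg.Agent.H35 Cfsg.Spor

theorem m2_rall : ∀ p, p < 52 → m2_rf p = true := by
  apply allR_blocks m2_rf 52 10 1 _ (by decide)
  intro k hk
  interval_cases k
  · exact m2_rchk_0

theorem m2_circ_ok : circChk (fullW m2_rws m2_prels) m2_circT 0 m2_ccert = true := by decide +kernel
theorem m2_hc_ok : allR (fun c => hcChk m2_rsw m2_hc1T m2_hc2T c) 3 2 0 = true := by decide +kernel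
theorem m2_h0 : RData.aord (m2_rd.ent 0 1) = 0 := by decide +kernel

end Cfsg.Agent.H94.S460.M
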